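import Mathlib.NumberTheory.Padics.RingHoms
import Mathlib.LinearAlgebra.FreeModule.PID
import Mathlib.LinearAlgebra.Trace
import Mathlib.LinearAlgebra.PID
import Mathlib.Algebra.Polynomial.Coeff
import Mathlib.FieldTheory.Finite.Basic
import Mathlib.RingTheory.IntegralDomain
import Cfsg.Agent.H7.GA
/-! Lattices over `ℤ_[p]` for a group of order `p`: `H9.Tt.exists_pair` (a lattice on which the
trace of the norm element exceeds the rank has a trivial direct summand), bi-invariant elements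
`Adm` of a component of `ℤ_[p][G]`, and `tate_count`: at most `(e + 1) / 2` pairwise orthogonal real
components are of positive type on a Sylow subgroup `P` of order `p` with `N(P) = P E`, `e` odd. -/

set_option autoImplicit false

namespace H9.Tt
open Polynomial Module

variable {p : ℕ} [hp : Fact p.Prime]

theorem exists_geom : ∃ q : ℤ[X], (X - 1) ^ (p - 1) = ∑ j ∈ Finset.range p, X ^ j + C (p : ℤ) * q := by
  have h1 : ∑ j ∈ Finset.range p, (X : (ZMod p)[X]) ^ j = (X - 1) ^ (p - 1) := by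
    apply mul_right_cancel₀ (X_sub_C_ne_zero (1 : ZMod p))
    rw [C_1, geom_sum_mul, ← pow_succ, Nat.sub_add_cancel hp.out.one_le, sub_pow_char, one_pow]
  have h2 : C (p : ℤ) ∣ (X - 1) ^ (p - 1) - ∑ j ∈ Finset.range p, X ^ j := by
    rw [C_dvd_iff_dvd_coeff]
    intro i
    rw [← ZMod.intCast_zmod_eq_zero_iff_dvd]
    have : ((X - 1) ^ (p - 1) - ∑ j ∈ Finset.range p, X ^ j : ℤ[X]).map
        (Int.castRingHom (ZMod p)) = 0 := by
      simp [Polynomial.map_sum, h1]
    have h3 := congrArg (coeff · i) this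
    simp only [coeff_map, coeff_zero] at h3
    exact h3
  obtain ⟨q, hq⟩ := h2
  exact ⟨q, by rw [← hq]; ring⟩

theorem eq_zero_of_pow_dvd {c : ℤ_[p]} (h : ∀ n : ℕ, (p : ℤ_[p]) ^ n ∣ c) : c = 0 := by
  by_contra h0
  have h1 := h (c.valuation + 1)
  rw [← Ideal.mem_span_singleton, PadicInt.mem_span_pow_iff_le_valuation c h0] at h1
  omega

variable {L : Type*} [AddCommGroup L] [Module ℤ_[p] L] [Module.Free ℤ_[p] L]
  [Module.Finite ℤ_[p] L]

theorem p_ne : (p : ℤ_[p]) ≠ 0 := by exact_mod_cast hp.out.ne_zero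

theorem card_le_of_indep {ι : Type*} [Fintype ι] (v : ι → L)
    (h : ∀ c : ι → ℤ_[p], (∃ u, ∑ i, c i • v i = (p : ℤ_[p]) • u) → ∀ i, (p : ℤ_[p]) ∣ c i) :
    Fintype.card ι ≤ finrank ℤ_[p] L := by
  refine LinearIndependent.fintype_card_le_finrank (b := v) ?_
  rw [Fintype.linearIndependent_iff]
  have key : ∀ n : ℕ, ∀ c : ι → ℤ_[p], ∑ i, c i • v i = 0 → ∀ i, (p : ℤ_[p]) ^ n ∣ c i := by
    intro n
    induction n with
    | zero => simp
    | succ n ih =>
      intro c hc i
      choose d hd using h c ⟨0, by simpa using hc⟩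
      have h1 : ∑ i, d i • v i = 0 := by
        have : (p : ℤ_[p]) • ∑ i, d i • v i = 0 := by
          rw [← hc, Finset.smul_sum]; simp [hd, mul_smul]
        exact (smul_eq_zero.1 this).resolve_left p_ne
      rw [hd, pow_succ']
      exact mul_dvd_mul_left _ (ih d h1 i)
  exact fun c hc i => eq_zero_of_pow_dvd fun n => key n c hc i

theorem exists_pair (x : End ℤ_[p] L) (hx : x ^ p = 1) {s : ℕ}
    (hs : LinearMap.trace _ _ (∑ j ∈ Finset.range p, x ^ j) = s) (hlt : finrank ℤ_[p] L < s) :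
    ∃ (w : L) (φ : L →ₗ[ℤ_[p]] ℤ_[p]), x w = w ∧ (∀ v, φ (x v) = φ v) ∧ ¬ (p : ℤ_[p]) ∣ φ w := by
  classical
  set T := ∑ j ∈ Finset.range p, x ^ j with hT
  have hxT : x * T = T := by
    have := mul_geom_sum x p
    rw [hx, sub_self, sub_mul, one_mul, sub_eq_zero] at this
    exact this
  have hTx : T * x = T := by
    have := geom_sum_mul x p
    rw [hx, sub_self, mul_sub, mul_one, sub_eq_zero] at this
    exact this
  have hfix : ∀ w, x w = w → T w = (p : ℤ_[p]) • w := fun w hw => by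
    have : ∀ j : ℕ, (x ^ j) w = w := fun j => by
      induction j with
      | zero => rfl
      | succ j ih => rw [pow_succ, End.mul_apply, hw, ih]
    simp [hT, LinearMap.sum_apply, this, Nat.cast_smul_eq_nsmul]
  let K := LinearMap.range T
  have hK : ∀ k ∈ K, x k = k := by
    rintro _ ⟨u, rfl⟩
    rw [← End.mul_apply, hxT]
  have hr : s = p * finrank ℤ_[p] K := by
    have h1 := LinearMap.trace_restrict_eq_of_forall_mem K T (fun v => ⟨v, rfl⟩)
    have h2 : T.restrict (p := K) (q := K) (fun v _ => ⟨v, rfl⟩) = (p : ℤ_[p]) • LinearMap.id := by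
      ext k
      exact hfix k (hK k k.2)
    rw [h2, hs, map_smul, LinearMap.trace_id] at h1
    have : ((s : ℕ) : ℤ_[p]) = ((p * finrank ℤ_[p] K : ℕ) : ℤ_[p]) := by
      rw [← h1]; simp
    exact_mod_cast this
  let b := Module.finBasis ℤ_[p] K
  by_contra hne
  push Not at hne
  have hpure : ∀ k : K, ∀ w, (k : L) = (p : ℤ_[p]) • w → ∀ j, (p : ℤ_[p]) ∣ b.repr k j := by
    intro k w hw j
    have h1 : x w = w := by
      have := hK k k.2
      rw [hw, map_smul] at this
      exact smul_right_injective _ p_ne this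
    have h2 : T.rangeRestrict w = k := Subtype.ext (by rw [hw]; exact hfix w h1)
    have := hne w (b.coord j ∘ₗ T.rangeRestrict) h1 fun v => by
      have : T.rangeRestrict (x v) = T.rangeRestrict v :=
        Subtype.ext (by change T (x v) = T v; rw [← End.mul_apply, hTx])
      simp [this]
    simpa [h2] using this
  choose u hu using fun j => (b j).2
  obtain ⟨q, hq⟩ := exists_geom (p := p)
  have hq' : (x - 1) ^ (p - 1) = T + (p : ℤ_[p]) • aeval x q := by
    have := congrArg (aeval x) hq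
    simp only [map_pow, map_sub, aeval_X, map_one, map_add, map_sum, map_mul, aeval_C] at this
    rw [this, hT]
    congr 1
    simp [Nat.cast_smul_eq_nsmul]
  let S : Submodule ℤ_[p] L := LinearMap.range ((p : ℤ_[p]) • LinearMap.id)
  have hS : ∀ v, v ∈ S ↔ ∃ w, v = (p : ℤ_[p]) • w := fun v =>
    ⟨fun ⟨w, h⟩ => ⟨w, h.symm⟩, fun ⟨w, h⟩ => ⟨w, h.symm⟩⟩
  have hSm : ∀ (f : End ℤ_[p] L) v, v ∈ S → f v ∈ S := fun f v hv => by
    obtain ⟨w, rfl⟩ := (hS v).1 hv
    exact (hS _).2 ⟨f w, map_smul _ _ _⟩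
  have hn : ∀ m, p ≤ m → ∀ v, ((x - 1) ^ m) v ∈ S := fun m hm v => by
    obtain ⟨m, rfl⟩ : ∃ k, m = k + 1 + (p - 1) := ⟨m - p, by have := hp.out.pos; omega⟩
    rw [pow_add, pow_succ, mul_assoc, End.mul_apply, hq', mul_add, sub_mul, hxT, one_mul, sub_self,
      zero_add]
    exact hSm _ _ ((hS _).2 ⟨_, by rw [mul_smul_comm]; rfl⟩)
  have := card_le_of_indep (ι := Fin p × Fin (finrank ℤ_[p] K))
    (fun i => ((x - 1) ^ (i.1 : ℕ)) (u i.2)) fun c hc => by
      rw [← hS] at hc
      suffices ∀ m : ℕ, ∀ i : Fin p, (i : ℕ) = m → ∀ j, (p : ℤ_[p]) ∣ c (i, j) from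
        fun i => this _ i.1 rfl i.2
      intro m
      induction m using Nat.strong_induction_on with
      | _ m ih =>
      intro i hi
      have h1 := hSm ((x - 1) ^ (p - 1 - m)) _ hc
      rw [Fintype.sum_prod_type, ← Finset.add_sum_erase _ _ (Finset.mem_univ i), map_add] at h1
      have h2 : ((x - 1) ^ (p - 1 - m)) (∑ i' ∈ Finset.univ.erase i, ∑ j,
          c (i', j) • ((x - 1) ^ (i' : ℕ)) (u j)) ∈ S := by
        rw [map_sum]
        refine S.sum_mem fun i' hi' => ?_
        rw [map_sum]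
        refine S.sum_mem fun j _ => ?_
        have h3 : (i' : ℕ) ≠ m := fun e => Finset.ne_of_mem_erase hi' (Fin.ext (e.trans hi.symm))
        rcases h3.lt_or_gt with h3 | h3
        · obtain ⟨d, hd⟩ := ih _ h3 i' rfl j
          exact hSm _ _ ((hS _).2 ⟨_, by rw [hd, mul_smul]⟩)
        · rw [map_smul, ← End.mul_apply, ← pow_add]
          exact S.smul_mem _ (hn _ (by have := i.2; omega) _)
      have h4 := (S.add_mem_iff_left h2).1 h1
      have h5 : ((∑ j, c (i, j) • b j : K) : L) ∈ S := by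
        have h6 : ((x - 1) ^ (p - 1 - m)) (∑ j, c (i, j) • ((x - 1) ^ (i : ℕ)) (u j)) =
            ((∑ j, c (i, j) • b j : K) : L) +
              (p : ℤ_[p]) • ∑ j, c (i, j) • aeval x q (u j) := by
          rw [map_sum, Submodule.coe_sum, Finset.smul_sum, ← Finset.sum_add_distrib]
          refine Finset.sum_congr rfl fun j _ => ?_
          rw [map_smul, ← End.mul_apply, ← pow_add, show p - 1 - m + i = p - 1 by
            have := i.2; omega, hq', LinearMap.add_apply, hu, smul_add, smul_comm]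
          rfl
        rw [h6] at h4
        exact (S.add_mem_iff_left ((hS _).2 ⟨_, rfl⟩)).1 h4
      obtain ⟨w, hw⟩ := (hS _).1 h5
      intro j
      simpa [Finsupp.single_apply] using hpure _ w hw j
  simp at this
  omega

section group
open MonoidAlgebra H7 Subgroup
variable {G : Type*} [Group G] [Fintype G]

theorem trace_mulLeft {R : Type*} [CommRing R] (a : R[G]) :
    LinearMap.trace R R[G] (LinearMap.mulLeft R a) = Fintype.card G * a.coeff 1 := by
  classical
  rw [LinearMap.trace_eq_matrix_trace R (MonoidAlgebra.basis G R), Matrix.trace]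
  have : ∀ g, (LinearMap.toMatrix (MonoidAlgebra.basis G R) (MonoidAlgebra.basis G R)
      (LinearMap.mulLeft R a)).diag g = a.coeff 1 := fun g => by
    rw [Matrix.diag_apply, LinearMap.toMatrix_apply, MonoidAlgebra.basis_apply]
    change (a * single g 1).coeff g = _
    rw [coeff_mul_single_one', mul_inv_cancel]
  simp only [this, Finset.sum_const, Finset.card_univ, nsmul_eq_mul]

/-- Bi-invariant elements in the `z`-component. -/
structure Adm (P : Subgroup G) (z a : ℤ_[p][G]) : Prop where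
  left : ∀ k ∈ P, ∀ g, a.coeff (k * g) = a.coeff g
  right : ∀ k ∈ P, ∀ g, a.coeff (g * k) = a.coeff g
  mul : z * a = (Fintype.card G : ℤ_[p]) • a

theorem exists_adm {P : Subgroup G} [Fintype P] (hP : Nat.card P = p) {z : ℤ_[p][G]}
    (hz : z ∈ Z ℤ_[p] G) (hzz : z * z = (Fintype.card G : ℤ_[p]) • z) {n s : ℕ}
    (hn : z.coeff 1 = n) (hs : ∑ k : P, z.coeff k = s) (hlt : n < s) :
    ∃ a, Adm P z a ∧ ¬ (p : ℤ_[p]) ∣ a.coeff 1 := by
  classical
  have hc : (Fintype.card G : ℤ_[p]) ≠ 0 := by exact_mod_cast Fintype.card_ne_zero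
  let L := LinearMap.range (LinearMap.mulLeft ℤ_[p] z)
  have hL : ∀ b : ℤ_[p][G], ∀ v ∈ L, LinearMap.mulLeft ℤ_[p] b v ∈ L := by
    rintro b _ ⟨v, rfl⟩
    exact ⟨b * v, by simp [← mul_assoc, Z_comm hz b]⟩
  let ρ : ℤ_[p][G] →ₐ[ℤ_[p]] End ℤ_[p] L :=
    { toFun := fun b => (LinearMap.mulLeft ℤ_[p] b).restrict (hL b)
      map_one' := by ext; simp
      map_mul' := fun a b => by ext; simp [mul_assoc]
      map_zero' := by ext; simp
      map_add' := fun a b => by ext; simp [add_mul]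
      commutes' := fun r => by ext; simp [Algebra.smul_def] }
  have hρz : ρ z = (Fintype.card G : ℤ_[p]) • 1 := by
    refine LinearMap.ext fun v => Subtype.ext ?_
    obtain ⟨_, v, rfl⟩ := v
    change z * (z * v) = (Fintype.card G : ℤ_[p]) • (z * v)
    rw [← mul_assoc, hzz, smul_mul_assoc]
  have htr : ∀ b, LinearMap.trace _ _ (ρ b) = (b * z).coeff 1 := fun b => by
    have h1 := LinearMap.trace_restrict_eq_of_forall_mem L (LinearMap.mulLeft ℤ_[p] (b * z))
      fun v => ⟨b * v, by simp [← mul_assoc, Z_comm hz b]⟩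
    rw [trace_mulLeft] at h1
    change LinearMap.trace _ _ (ρ (b * z)) = _ at h1
    rw [map_mul, hρz, mul_smul_comm, mul_one, map_smul, smul_eq_mul] at h1
    exact mul_left_cancel₀ hc h1
  haveI : IsCyclic P := isCyclic_of_prime_card hP
  obtain ⟨u, hu⟩ := IsCyclic.exists_generator (α := P)
  have ho : orderOf u = p := by rw [orderOf_eq_card_of_forall_mem_zpowers hu, hP]
  have hpow : ∀ j : ℕ, ρ (single (u : G) 1) ^ j = ρ (single ((u ^ j : P) : G) 1) := fun j => by
    rw [← map_pow, single_pow, one_pow]; rfl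
  obtain ⟨w, φ, hw, hφ, hd⟩ := exists_pair (p := p) (ρ (single (u : G) 1)) (s := s)
    (by rw [hpow, show u ^ p = 1 from ho ▸ pow_orderOf_eq_one u]; exact map_one ρ)
    (by
      simp only [hpow, map_sum, htr, coeff_single_one_mul', mul_one]
      rw [← hs, ← Equiv.sum_comp (Equiv.inv P) (fun k : P => z.coeff k), Finset.sum_range]
      refine Fintype.sum_bijective (fun j : Fin p => u ^ (j : ℕ)) ?_ _ _ fun j => rfl
      rw [Fintype.bijective_iff_injective_and_card]
      exact ⟨fun i j h => Fin.ext (pow_injOn_Iio_orderOf (i.2.trans_eq ho.symm)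
        (j.2.trans_eq ho.symm) h), by rw [Fintype.card_fin, ← Nat.card_eq_fintype_card, hP]⟩)
    (by
      have := htr 1
      rw [map_one, LinearMap.trace_one, one_mul, hn] at this
      have h2 : finrank ℤ_[p] L = n := by exact_mod_cast this
      omega)
  have hk : ∀ k ∈ P, ρ (single k 1) w = w ∧ ∀ v, φ (ρ (single k 1) v) = φ v := fun k hk => by
    obtain ⟨j, hj⟩ := (mem_powers_iff_mem_zpowers.2 (hu ⟨k, hk⟩) : _ ∈ Submonoid.powers u)
    have : ρ (single k 1) = ρ (single (u : G) 1) ^ j := by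
      rw [hpow, show u ^ j = ⟨k, hk⟩ from hj]
    rw [this]
    clear this hj
    induction j with
    | zero => simp
    | succ j ih => exact ⟨by rw [pow_succ, End.mul_apply, hw, ih.1],
        fun v => by rw [pow_succ', End.mul_apply, hφ, ih.2]⟩
  have hm : ∀ g h : G, ρ (single (g * h) 1) = ρ (single g 1) * ρ (single h 1) := fun g h => by
    rw [← map_mul, single_mul_single, one_mul]
  refine ⟨ofFun fun g => φ (ρ (single g⁻¹ 1) w), ⟨fun k h g => ?_, fun k h g => ?_, ?_⟩, ?_⟩
  · simp only [coeff_ofFun, mul_inv_rev, hm, End.mul_apply, (hk _ (inv_mem h)).1]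
  · simp only [coeff_ofFun, mul_inv_rev, hm, End.mul_apply, (hk _ (inv_mem h)).2]
  · refine ga_ext fun g => ?_
    have h1 := congrArg (fun f => φ (ρ (single g⁻¹ 1) (f w))) hρz
    conv_lhs at h1 => rw [eq_sum_single z]
    simp only [map_sum, map_smul, LinearMap.sum_apply, LinearMap.smul_apply, End.one_apply,
      smul_eq_mul] at h1
    simp only [coeff_mul_sum, coeff_ofFun, coeff_smul', mul_inv_rev, inv_inv, hm, End.mul_apply, h1]
  · rw [coeff_ofFun, inv_one, ← one_def, map_one]; exact hd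

theorem Adm.inv {P : Subgroup G} {z a : ℤ_[p][G]} (h : Adm P z a) (hz : z ∈ Z ℤ_[p] G)
    (hi : ∀ g, z.coeff g⁻¹ = z.coeff g) : Adm P z (ofFun fun g => a.coeff g⁻¹) := by
  refine ⟨fun k hk g => ?_, fun k hk g => ?_, ga_ext fun g => ?_⟩
  · simp only [coeff_ofFun, mul_inv_rev, h.right _ (inv_mem hk)]
  · simp only [coeff_ofFun, mul_inv_rev, h.left _ (inv_mem hk)]
  · have := congrArg (·.coeff g⁻¹) h.mul
    simp only [Z_comm hz a, coeff_mul_sum', coeff_smul'] at this
    simp only [coeff_mul_sum, coeff_ofFun, coeff_smul', ← this, mul_inv_rev, inv_inv]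
    exact Fintype.sum_equiv (Equiv.inv G) _ _ fun x => by simp [hi, mul_comm]

theorem Adm.conv {P E : Subgroup G} [Fintype E] (hP : Nat.card P = p)
    (hN : ∀ g, g ∈ normalizer (P : Set G) ↔ ∃ y ∈ E, y⁻¹ * g ∈ P)
    (hE : ∀ y ∈ E, y ∈ P → y = 1) {z z' a b : ℤ_[p][G]} (h : Adm P z a) (h' : Adm P z' b)
    (hz : z' ∈ Z ℤ_[p] G) (h0 : z * z' = 0) (s : E) :
    ∑ y : E, PadicInt.toZMod (a.coeff (s * (y : G)⁻¹) * b.coeff y) = 0 := by
  classical
  have hc : (Fintype.card G : ℤ_[p]) ≠ 0 := by exact_mod_cast Fintype.card_ne_zero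
  have hab : a * b = 0 := by
    have : (z * a) * (z' * b) = 0 := by
      rw [mul_assoc, ← mul_assoc a, ← Z_comm hz, ← mul_assoc, ← mul_assoc, h0]; simp
    rw [h.mul, h'.mul, smul_mul_smul_comm] at this
    exact (smul_eq_zero.1 this).resolve_left (mul_ne_zero hc hc)
  have hsN : (s : G) ∈ normalizer (P : Set G) := (hN _).2 ⟨s, s.2, by simp⟩
  let F : G → ℤ_[p] := fun g => a.coeff (s * g⁻¹) * b.coeff g
  have hF : ∀ g g', g⁻¹ * g' ∈ P → F g = F g' := fun g g' hg => by
    have h1 := h.left _ ((mem_normalizer_iff.1 hsN _).1 hg) (s * g'⁻¹)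
    have h2 := h'.right _ hg g
    simp only [F, ← h1, ← h2]
    congr 2 <;> group
  let f : G ⧸ P → ℤ_[p] := Quotient.lift F fun g g' hg => hF g g' (QuotientGroup.leftRel_apply.1 hg)
  have h1 : ∑ c, f c = 0 := by
    have h2 := congrArg (·.coeff s) hab
    simp only [coeff_mul_sum', coeff_zero'] at h2
    change ∑ g : G, f (g : G ⧸ P) = 0 at h2
    rw [← Finset.sum_fiberwise Finset.univ (fun g : G => (g : G ⧸ P)), Finset.sum_congr rfl
      (g := fun c => (p : ℤ_[p]) * f c) fun c _ => by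
        rw [Finset.sum_congr rfl (g := fun _ => f c) fun g hg => by
          rw [(Finset.mem_filter.1 hg).2], Finset.sum_const, nsmul_eq_mul]
        have := QuotientGroup.card_preimage_mk P {c}
        rw [hP, Nat.card_unique (α := ({c} : Set (G ⧸ P))), mul_one, Nat.card_coe_set_eq,
          Set.ncard_eq_toFinset_card'] at this
        congr 2
        refine Eq.trans ?_ this
        congr 1
        ext; simp, ← Finset.mul_sum] at h2
    exact (mul_eq_zero.1 h2).resolve_left p_ne
  have hfix : ∀ c : G ⧸ P, (∀ u : P, u • c = c) ↔ ∃ y : E, ((y : G) : G ⧸ P) = c := fun c => by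
    obtain ⟨g, rfl⟩ := QuotientGroup.mk_surjective c
    have h3 : (∀ u : P, u • (g : G ⧸ P) = g) ↔ ∀ u ∈ P, g⁻¹ * u * g⁻¹⁻¹ ∈ P := by
      refine ⟨fun h u hu => ?_, fun h u => ?_⟩
      · have := QuotientGroup.eq.1 (h ⟨u, hu⟩).symm
        simpa [mul_assoc, Subgroup.smul_def] using this
      · refine (QuotientGroup.eq.2 ?_).symm
        simpa [mul_assoc, Subgroup.smul_def] using h u u.2
    rw [h3]
    constructor
    · intro h4
      obtain ⟨y, hy, hy'⟩ := (hN g).1 (inv_mem_iff.1 (mem_normalizer_fintype h4))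
      exact ⟨⟨y, hy⟩, QuotientGroup.eq.2 hy'⟩
    · rintro ⟨y, hy⟩ u hu
      exact (mem_normalizer_iff.1 (inv_mem ((hN g).2 ⟨y, y.2, QuotientGroup.eq.1 hy⟩)) u).1 hu
  have hinv : ∀ (u : P) c, f (u • c) = f c := fun u c => by
    obtain ⟨g, rfl⟩ := QuotientGroup.mk_surjective c
    change F (u * g) = F g
    simp only [F, mul_inv_rev, ← mul_assoc, h.right _ (inv_mem u.2), h'.left _ u.2]
  have h4 := sum_eq_zero_of_pgroup (k := ZMod p) (p := p) (by simp) (P := P)
    (IsPGroup.of_card (n := 1) (by simpa using hP))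
    (fun c : G ⧸ P => if ∀ u : P, u • c = c then 0 else PadicInt.toZMod (f c))
    (fun u c => by
      rw [hinv]
      refine if_congr ⟨fun h v => ?_, fun h v => by rw [h u, h v]⟩ rfl rfl
      have := h u⁻¹
      rw [inv_smul_smul] at this
      rw [← this] at h
      exact h v) (fun c hc => if_pos hc)
  have h5 := congrArg PadicInt.toZMod h1
  rw [map_sum, map_zero] at h5
  have h6 := congrArg₂ (· - ·) h5 h4
  simp only [← Finset.sum_sub_distrib, sub_zero] at h6
  rw [← h6]
  refine Fintype.sum_of_injective (fun y : E => ((y : G) : G ⧸ P)) (fun y y' e => ?_) _ _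
    (fun c hc => ?_) fun y => ?_
  · have := hE _ (y⁻¹ * y').2 (QuotientGroup.eq.1 e)
    exact Subtype.ext (inv_mul_eq_one.1 this)
  · rw [if_neg fun h => hc ((hfix c).1 h), sub_self]
  · rw [if_pos ((hfix _).2 ⟨y, rfl⟩), sub_zero]; rfl

/-- Distinct real components of positive type have disjoint sets of weights. -/
theorem tate_count {P E : Subgroup G} [Fintype P] (hP : Nat.card P = p)
    (hN : ∀ g, g ∈ normalizer (P : Set G) ↔ ∃ y ∈ E, y⁻¹ * g ∈ P)
    (hE : ∀ y ∈ E, y ∈ P → y = 1) (κ : E →* (ZMod p)ˣ) (hκ : Function.Injective κ)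
    (hodd : Odd (Nat.card E)) {ι : Type*} [Fintype ι] (z : ι → ℤ_[p][G])
    (hz : ∀ i, z i ∈ Z ℤ_[p] G) (hzz : ∀ i, z i * z i = (Fintype.card G : ℤ_[p]) • z i)
    (h0 : ∀ i j, i ≠ j → z i * z j = 0) (hi : ∀ i g, (z i).coeff g⁻¹ = (z i).coeff g)
    (hlt : ∀ i, ∃ n s : ℕ, (z i).coeff 1 = n ∧ ∑ k : P, (z i).coeff k = s ∧ n < s) :
    2 * Fintype.card ι ≤ Nat.card E + 1 := by
  classical
  haveI := Fintype.ofFinite E
  have hκe : κ ^ Nat.card E = 1 := by
    ext y; rw [MonoidHom.pow_apply, ← map_pow, pow_card_eq_one', map_one, MonoidHom.one_apply]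
  have hfin : IsOfFinOrder κ := isOfFinOrder_iff_pow_eq_one.2 ⟨_, Nat.card_pos, hκe⟩
  haveI : Finite (zpowers κ) := finite_zpowers.2 hfin
  haveI := Fintype.ofFinite (zpowers κ)
  have hcd : Fintype.card (zpowers κ) ∣ Nat.card E := by
    rw [← Nat.card_eq_fintype_card, Nat.card_zpowers]; exact orderOf_dvd_of_pow_eq_one hκe
  have hcp : (Fintype.card (zpowers κ) : ZMod p) ≠ 0 := by
    rw [Ne, ZMod.natCast_eq_zero_iff]
    intro hd
    have h1 := hd.trans (hcd.trans (card_dvd_of_injective κ hκ))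
    rw [Nat.card_eq_fintype_card, ZMod.card_units] at h1
    have := Nat.le_of_dvd (by have := hp.out.two_le; omega) h1
    have := hp.out.pos; omega
  let Φ : zpowers κ → ℤ_[p][G] → ZMod p := fun μ a =>
    ∑ y : E, PadicInt.toZMod (a.coeff y) * (μ.1 y : ZMod p)
  let W : ι → Finset (zpowers κ) := fun i => Finset.univ.filter fun μ => ∃ a, Adm P (z i) a ∧ Φ μ a ≠ 0
  have hW1 : ∀ i, (W i).Nonempty := fun i => by
    obtain ⟨n, s, h1, h2, h3⟩ := hlt i
    obtain ⟨a, ha, ha1⟩ := exists_adm hP (hz i) (hzz i) h1 h2 h3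
    have h4 : ∑ μ, Φ μ a = PadicInt.toZMod (a.coeff 1) * Fintype.card (zpowers κ) := by
      simp only [Φ]
      rw [Finset.sum_comm, Finset.sum_eq_single (1 : E)]
      · simp [mul_comm]
      · intro y _ hy
        rw [← Finset.mul_sum]
        let ev : zpowers κ →* ZMod p :=
          { toFun := fun μ => (μ.1 y : ZMod p), map_one' := by simp, map_mul' := by simp }
        rw [show ∑ μ : zpowers κ, (μ.1 y : ZMod p) = 0 from sum_hom_units_eq_zero ev fun e => by
          have := DFunLike.congr_fun e ⟨κ, mem_zpowers κ⟩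
          exact hy (hκ (by rw [map_one]; exact Units.ext this)), mul_zero]
      · simp
    have h5 : ∑ μ, Φ μ a ≠ 0 := by
      rw [h4]
      refine mul_ne_zero (fun e => ha1 ?_) hcp
      rwa [← RingHom.mem_ker, PadicInt.ker_toZMod, PadicInt.maximalIdeal_eq_span_p,
        Ideal.mem_span_singleton] at e
    obtain ⟨μ, -, hμ⟩ := Finset.exists_ne_zero_of_sum_ne_zero h5
    exact ⟨μ, Finset.mem_filter.2 ⟨Finset.mem_univ _, a, ha, hμ⟩⟩
  have hW2 : ∀ i, ∀ μ ∈ W i, μ⁻¹ ∈ W i := fun i μ hμ => by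
    obtain ⟨-, a, ha, h1⟩ := Finset.mem_filter.1 hμ
    refine Finset.mem_filter.2 ⟨Finset.mem_univ _, _, ha.inv (hz i) (hi i), ?_⟩
    convert h1 using 1
    refine Fintype.sum_equiv (Equiv.inv E) _ _ fun y => ?_
    rw [coeff_ofFun, Equiv.inv_apply, map_inv μ.1]; rfl
  have hW3 : ∀ i j, i ≠ j → Disjoint (W i) (W j) := fun i j hij => by
    rw [Finset.disjoint_left]
    intro μ h1 h2
    obtain ⟨-, a, ha, h1⟩ := Finset.mem_filter.1 h1
    obtain ⟨-, b, hb, h2⟩ := Finset.mem_filter.1 h2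
    refine mul_ne_zero h1 h2 ?_
    have h3 := fun s => ha.conv hP hN hE hb (hz j) (h0 i j hij) s
    calc Φ μ a * Φ μ b = ∑ s : E, (∑ y : E,
          PadicInt.toZMod (a.coeff (s * (y : G)⁻¹) * b.coeff y)) * (μ.1 s : ZMod p) := by
          simp only [Φ]
          rw [Finset.sum_mul_sum]
          simp only [Finset.sum_mul]
          rw [Finset.sum_comm, Finset.sum_comm (f := fun s y : E =>
            PadicInt.toZMod (a.coeff (s * (y : G)⁻¹) * b.coeff y) * (μ.1 s : ZMod p))]
          refine Finset.sum_congr rfl fun y _ => ?_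
          refine Fintype.sum_equiv (Equiv.mulRight y) _ _ fun x => ?_
          simp only [Equiv.coe_mulRight, coe_mul, mul_inv_cancel_right, map_mul, Units.val_mul]
          ring
      _ = 0 := by simp only [h3, zero_mul, Finset.sum_const_zero]
  have hW4 : ∀ i, 2 ≤ (W i).card + if 1 ∈ W i then 1 else 0 := fun i => by
    split_ifs with h
    · have := (hW1 i).card_pos; omega
    · obtain ⟨μ, hμ⟩ := hW1 i
      refine Finset.one_lt_card.2 ⟨μ, hμ, μ⁻¹, hW2 i μ hμ, fun e => h ?_⟩
      have h1 : μ ^ 2 = 1 := by rw [sq]; nth_rewrite 1 [e]; exact inv_mul_cancel μ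
      have h2 : orderOf μ = 1 := Nat.eq_one_of_dvd_coprimes (Nat.coprime_two_left.2 hodd)
        (orderOf_dvd_of_pow_eq_one h1) (orderOf_dvd_card.trans hcd)
      exact orderOf_eq_one_iff.1 h2 ▸ hμ
  have h1 : ∑ i, (W i).card ≤ Nat.card E := by
    rw [← Finset.card_biUnion fun i _ j _ hij => hW3 i j hij]
    exact (Finset.card_le_univ _).trans (Nat.le_of_dvd Nat.card_pos hcd)
  have h2 : ∑ i, (if 1 ∈ W i then 1 else 0) ≤ 1 := by
    rw [← Finset.card_filter]
    exact Finset.card_le_one.2 fun i hi j hj => by_contra fun hij =>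
      Finset.disjoint_left.1 (hW3 i j hij) (Finset.mem_filter.1 hi).2 (Finset.mem_filter.1 hj).2
  have h3 := Finset.sum_le_sum fun i (_ : i ∈ Finset.univ) => hW4 i
  rw [Finset.sum_add_distrib, Finset.sum_const, Finset.card_univ, smul_eq_mul] at h3
  omega

end group

end H9.Tt
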