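import Mathlib.NumberTheory.Padics.Hensel
import Mathlib.RingTheory.Polynomial.Cyclotomic.Roots
import Mathlib.RingTheory.ZMod.Torsion
import Cfsg.Agent.H9.Tt1
import Cfsg.Agent.H7.Misc2
/-! Complex form `H9.Tt.tate_irr` of the count `tate_count`: families of irreducible characters of
positive type (`Pl`) on a Sylow subgroup of prime order. -/

set_option autoImplicit false

namespace H9.Tt
open Polynomial Cfsg H5 H7 MonoidAlgebra Subgroup
open scoped ComplexConjugate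

variable {p : ℕ} [hp : Fact p.Prime]

theorem toZMod_eq_zero_iff {a : ℤ_[p]} : PadicInt.toZMod a = 0 ↔ ‖a‖ < 1 := by
  rw [← RingHom.mem_ker, PadicInt.ker_toZMod, IsLocalRing.mem_maximalIdeal, mem_nonunits_iff,
    PadicInt.not_isUnit_iff]

theorem exists_root {e : ℕ} (he : e ∣ p - 1) : ∃ r : ℤ_[p], IsPrimitiveRoot r e := by
  have hp1 : 0 < p - 1 := by have := hp.out.two_le; omega
  have he0 := Nat.pos_of_dvd_of_pos he hp1
  obtain ⟨ω₀, h₀⟩ := HasEnoughRootsOfUnity.exists_primitiveRoot (ZMod p) (p - 1)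
  obtain ⟨t, ht⟩ := he
  have hω := h₀.pow hp1 (a := t) (b := e) (by rw [ht, mul_comm])
  generalize ω₀ ^ t = ω at hω
  have ha : PadicInt.toZMod (ω.val : ℤ_[p]) = ω := by simp
  have hep : (e : ZMod p) ≠ 0 := by
    rw [Ne, ZMod.natCast_eq_zero_iff]
    intro h
    have := Nat.le_of_dvd hp1 (h.trans ⟨t, ht⟩); omega
  have hd : ‖(X ^ e - 1 : ℤ[X]).derivative.aeval (ω.val : ℤ_[p])‖ = 1 := by
    refine le_antisymm (PadicInt.norm_le_one _) (not_lt.1 fun h => ?_)
    rw [← toZMod_eq_zero_iff] at h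
    simp only [derivative_sub, derivative_X_pow, derivative_one, sub_zero, map_mul, map_pow,
      aeval_X, ha, aeval_C, map_natCast] at h
    exact mul_ne_zero hep (pow_ne_zero _ (hω.ne_zero he0.ne')) h
  obtain ⟨z, h1, h2, -⟩ := hensels_lemma (F := (X ^ e - 1 : ℤ[X])) (a := (ω.val : ℤ_[p])) (by
    rw [hd, one_pow, ← toZMod_eq_zero_iff]
    simp only [map_sub, map_pow, aeval_X, ha, map_one, hω.pow_eq_one, sub_self])
  rw [hd, ← toZMod_eq_zero_iff, map_sub, ha, sub_eq_zero] at h2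
  refine ⟨z, by simpa [sub_eq_zero] using h1, fun l hl => hω.dvd_of_pow_eq_one l ?_⟩
  rw [← h2, ← map_pow, hl, map_one]

theorem exists_sigma {e : ℕ} (he : e ∣ p - 1) {ζ : ℂ} (hζ : IsPrimitiveRoot ζ e) :
    Nonempty (Algebra.adjoin ℤ {ζ} →+* ℤ_[p]) := by
  have he0 := Nat.pos_of_dvd_of_pos he (by have := hp.out.two_le; omega)
  obtain ⟨r, hr⟩ := exists_root he
  have h1 : aeval r (minpoly ℤ ζ) = 0 := by
    rw [← cyclotomic_eq_minpoly hζ he0, ← eval_map_algebraMap, map_cyclotomic]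
    exact hr.isRoot_cyclotomic he0
  exact ⟨(AdjoinRoot.lift (algebraMap ℤ ℤ_[p]) r h1).comp
    (minpoly.equivAdjoin (hζ.isIntegral he0)).symm.toRingEquiv.toRingHom⟩

variable {G : Type*} [Group G] [Fintype G]

/-- Characters of positive type on `P`. -/
def Pl (P : Subgroup G) [Fintype P] (χ : IrrCharacter G) : Prop :=
  ∃ s : ℕ, ∑ k : P, (χ : G → ℂ) k = s ∧ charDegree (χ : G → ℂ) < s

theorem tate_irr {P E : Subgroup G} [Fintype P] (hP : Nat.card P = p)
    (hN : ∀ g, g ∈ normalizer (P : Set G) ↔ ∃ y ∈ E, y⁻¹ * g ∈ P)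
    (hE : ∀ y ∈ E, y ∈ P → y = 1) (κ : E →* (ZMod p)ˣ) (hκ : Function.Injective κ)
    (hodd : Odd (Nat.card E)) {ζ : ℂ} (hζ : IsPrimitiveRoot ζ (Nat.card E)) {ι : Type*}
    [Fintype ι] (S : ι → Set (IrrCharacter G)) (hS : ∀ i j, i ≠ j → Disjoint (S i) (S j))
    (hA : ∀ i g, mu (S i) 1 g ∈ Algebra.adjoin ℤ {ζ})
    (hi : ∀ i g, mu (S i) 1 g⁻¹ = mu (S i) 1 g) (hne : ∀ i, (S i).Nonempty)
    (hpl : ∀ i, ∀ χ ∈ S i, Pl P χ) : 2 * Fintype.card ι ≤ Nat.card E + 1 := by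
  classical
  have he : Nat.card E ∣ p - 1 := by
    have := card_dvd_of_injective κ hκ
    rwa [Nat.card_eq_fintype_card (α := (ZMod p)ˣ), ZMod.card_units] at this
  obtain ⟨σ⟩ := exists_sigma he hζ
  let z : ι → ℤ_[p][G] := fun i => ofFun fun g => σ ⟨_, hA i g⟩
  have hc : (Nat.card G : ℂ) ≠ 0 := card_ne_zero_complex
  have hmul : ∀ i j g, ∑ x, mu (S i) 1 x * mu (S j) 1 (x⁻¹ * g) =
      Fintype.card G * mu (S i ∩ S j) 1 g := fun i j g => by
    have := congrArg (·.coeff g) (eB_mul_eB (S i) (S j))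
    simp only [coeff_mul_sum, coeff_eB, blockCoeff_eq_mu] at this
    rw [← Nat.card_eq_fintype_card]
    apply mul_left_cancel₀ (pow_ne_zero 2 (inv_ne_zero hc))
    rw [Finset.mul_sum, sq, mul_assoc, inv_mul_cancel_left₀ hc, ← this]
    exact Finset.sum_congr rfl fun x _ => by ring
  have hz : ∀ i j g, (z i * z j).coeff g =
      σ (∑ x, ⟨_, hA i x⟩ * ⟨_, hA j (x⁻¹ * g)⟩) := fun i j g => by
    simp only [coeff_mul_sum, z, coeff_ofFun, map_sum, map_mul]
  refine tate_count hP hN hE κ hκ hodd z (fun i => ofFun_mem_Z fun g h => ?_)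
    (fun i => ga_ext fun g => ?_) (fun i j hij => ga_ext fun g => ?_) (fun i g => ?_) fun i => ?_
  · congr 2
    simp only [mu, fun χ : IrrCharacter G => χ.2.isClassFunction g h]
  · rw [hz, coeff_smul', coeff_ofFun, ← map_natCast σ, ← map_mul]
    congr 1
    refine Subtype.ext ?_
    simpa using hmul i i g
  · rw [hz, coeff_zero', ← map_zero σ]
    congr 1
    refine Subtype.ext ?_
    simpa [(hS i j hij).inter_eq, mu] using hmul i j g
  · simp only [z, coeff_ofFun, hi]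
  · choose! s h1 h2 using hpl i
    let T := Finset.univ.filter (· ∈ S i)
    have h3 : ∀ g, mu (S i) 1 g = ∑ χ ∈ T, (charDegree (χ : G → ℂ) : ℂ) * conj ((χ : G → ℂ) g) :=
      fun g => by
        rw [mu_eq, ← Finset.sum_filter]
        exact Finset.sum_congr rfl fun χ _ => by rw [χ.2.coe_charDegree]
    refine ⟨∑ χ ∈ T, charDegree (χ : G → ℂ) * charDegree (χ : G → ℂ),
      ∑ χ ∈ T, charDegree (χ : G → ℂ) * s χ, ?_, ?_, ?_⟩
    · rw [coeff_ofFun, ← map_natCast σ]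
      congr 1
      refine Subtype.ext ?_
      simp only [h3, SubringClass.coe_natCast]
      push_cast
      exact Finset.sum_congr rfl fun χ _ => by rw [← χ.2.coe_charDegree, map_natCast]
    · simp only [z, coeff_ofFun]
      rw [← map_sum, ← map_natCast σ]
      congr 1
      refine Subtype.ext ?_
      simp only [AddSubmonoidClass.coe_finsetSum, h3, SubringClass.coe_natCast]
      rw [Finset.sum_comm]
      push_cast
      refine Finset.sum_congr rfl fun χ hχ => ?_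
      rw [← Finset.mul_sum, ← map_sum, h1 χ (Finset.mem_filter.1 hχ).2, map_natCast]
    · obtain ⟨χ, hχ⟩ := hne i
      exact Finset.sum_lt_sum_of_nonempty ⟨χ, Finset.mem_filter.2 ⟨Finset.mem_univ _, hχ⟩⟩
        fun χ hχ => Nat.mul_lt_mul_of_pos_left (h2 χ (Finset.mem_filter.1 hχ).2) χ.2.charDegree_pos

theorem pl_gal {P : Subgroup G} [Fintype P] (σ : ℂ ≃+* ℂ) {χ : IrrCharacter G} (h : Pl P χ) :
    Pl P (gal σ χ) := by
  obtain ⟨s, h1, h2⟩ := h
  refine ⟨s, by simp only [gal_apply, ← map_sum, h1, map_natCast], ?_⟩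
  have : (charDegree (gal σ χ : G → ℂ) : ℂ) = charDegree (χ : G → ℂ) := by
    rw [(gal σ χ).2.coe_charDegree, gal_apply, ← χ.2.coe_charDegree, map_natCast]
  rwa [Nat.cast_injective this]

theorem exists_int_mu {A : Set (IrrCharacter G)} (h : ∀ σ, ∀ χ ∈ A, gal σ χ ∈ A) (g : G) :
    ∃ n : ℤ, mu A 1 g = n := by
  classical
  refine exists_int_of_forall_ringEquiv ?_ fun σ => gal_mu σ (fun χ =>
    ⟨fun h1 => gal_symm_gal σ χ ▸ h _ _ h1, h σ χ⟩) 1 g
  rw [mu_eq]
  refine IsIntegral.sum _ fun χ _ => ?_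
  split_ifs
  · rw [← χ.2.apply_inv]
    exact (χ.2.isCharacter.isIntegral _).mul (χ.2.isCharacter.isIntegral _)
  · exact isIntegral_zero

theorem mu_inv (A : Set (IrrCharacter G)) (g : G) : mu A 1 g⁻¹ = conj (mu A 1 g) := by
  classical
  rw [mu_eq, mu_eq, map_sum]
  refine Finset.sum_congr rfl fun χ _ => ?_
  split_ifs
  · rw [χ.2.apply_inv, map_mul, ← χ.2.coe_charDegree, map_natCast]
  · simp

/-- If `(e + 1) / 2` real characters with values in `ℤ[ζ_e]` are of positive type, there are no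
others. -/
theorem pl_subset {P E : Subgroup G} [Fintype P] (hP : Nat.card P = p)
    (hN : ∀ g, g ∈ normalizer (P : Set G) ↔ ∃ y ∈ E, y⁻¹ * g ∈ P)
    (hE : ∀ y ∈ E, y ∈ P → y = 1) (κ : E →* (ZMod p)ˣ) (hκ : Function.Injective κ)
    (hodd : Odd (Nat.card E)) {ζ : ℂ} (hζ : IsPrimitiveRoot ζ (Nat.card E))
    (T : Finset (IrrCharacter G)) (hT : 2 * T.card = Nat.card E + 1)
    (hA : ∀ χ ∈ T, ∀ g, (χ : G → ℂ) g ∈ Algebra.adjoin ℤ {ζ})
    (hr : ∀ χ ∈ T, ∀ g, (χ : G → ℂ) g⁻¹ = (χ : G → ℂ) g) (hpl : ∀ χ ∈ T, Pl P χ)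
    {ψ : IrrCharacter G} (h : Pl P ψ) : ψ ∈ T := by
  classical
  by_contra hψ
  have h1 : ∀ χ ∈ T, ∀ g, mu {χ} 1 g = (χ : G → ℂ) 1 * (χ : G → ℂ) g := fun χ hχ g => by
    rw [mu, finsum_mem_singleton, ← χ.2.apply_inv, hr χ hχ]
  have h2 : ∀ g, mu {χ | Pl P χ ∧ χ ∉ T} 1 g = mu {χ | Pl P χ} 1 g -
      ∑ χ ∈ T, (χ : G → ℂ) 1 * (χ : G → ℂ) g := fun g => by
    rw [mu_eq, mu_eq, eq_sub_iff_add_eq, ← Finset.sum_subset (Finset.subset_univ T)
      (f := fun χ : IrrCharacter G => if χ ∈ T then (χ : G → ℂ) 1 * (χ : G → ℂ) g else 0)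
      (fun χ _ h => if_neg h) |>.symm.trans (Finset.sum_congr rfl fun χ h => if_pos h),
      ← Finset.sum_add_distrib]
    refine Finset.sum_congr rfl fun χ _ => ?_
    by_cases h3 : χ ∈ T
    · simp [h3, hpl χ h3, ← χ.2.apply_inv, hr χ h3]
    · simp [h3]
  have h3 := exists_int_mu (A := {χ | Pl P χ}) fun σ χ h => pl_gal σ h
  have := tate_irr hP hN hE κ hκ hodd hζ (ι := Option T)
    (fun i => i.elim {χ | Pl P χ ∧ χ ∉ T} fun χ => {χ.1}) ?_ ?_ ?_ ?_ ?_
  · rw [Fintype.card_option, Fintype.card_coe] at this; omega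
  · rintro (_ | a) (_ | b) hab
    · exact absurd rfl hab
    · exact Set.disjoint_singleton_right.2 fun h => h.2 b.2
    · exact Set.disjoint_singleton_left.2 fun h => h.2 a.2
    · exact Set.disjoint_singleton.2 fun h => hab (by rw [Subtype.ext h])
  · rintro (_ | a) g
    · obtain ⟨n, hn⟩ := h3 g
      simp only [Option.elim, h2, hn]
      exact sub_mem (intCast_mem _ n) (sum_mem fun χ h => mul_mem (hA χ h 1) (hA χ h g))
    · simp only [Option.elim, h1 _ a.2]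
      exact mul_mem (hA _ a.2 1) (hA _ a.2 g)
  · rintro (_ | a) g
    · obtain ⟨n, hn⟩ := h3 g
      simp only [Option.elim, h2]
      rw [mu_inv, hn, map_intCast, Finset.sum_congr rfl fun χ h => by rw [hr χ h]]
    · simp only [Option.elim, h1 _ a.2, hr _ a.2]
  · rintro (_ | a)
    · exact ⟨ψ, h, hψ⟩
    · exact ⟨a, rfl⟩
  · rintro (_ | a) χ hχ
    · exact hχ.1
    · exact (show χ = a from hχ) ▸ hpl _ a.2

end H9.Tt
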