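import Cfsg.Agent.H9.Tt2
import Cfsg.Agent.H10.Mod3
import Cfsg.Agent.H10.BR3
import Cfsg.Agent.H10.E3
import Cfsg.Agent.H5.TI
/-! Groups with a self-centralizing Sylow subgroup `P` of order `p`, `N(P) = P E`, and a unique
irreducible character of degree `p`: `H9.Tt.perfect_of_uniq`; if `E` has odd order and is a trivial
intersection subgroup of index two in its normalizer then there are at most `p + 1` Sylow
`p`-subgroups (`card_sylow_le_of_odd`). -/

set_option autoImplicit false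

namespace H9.Tt
open Cfsg H5 H7 H10 Subgroup
open scoped ComplexConjugate

variable {p : ℕ} [hp : Fact p.Prime] {G : Type*} [Group G] [Fintype G]

/-- An abelian trivial intersection subgroup inverted by the other half of its normalizer. -/
structure Dih (E : Subgroup G) : Prop where
  comm : ∀ a ∈ E, ∀ b ∈ E, a * b = b * a
  card : Nat.card 𝐍[E] = 2 * Nat.card E
  ti : ∀ g, ∀ y ∈ E, y ≠ 1 → g * y * g⁻¹ ∈ E → g ∈ 𝐍[E]
  inv : ∀ g ∈ 𝐍[E], g ∉ E → ∀ y ∈ E, g * y * g⁻¹ = y⁻¹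

theorem Dih.ind_apply {E : Subgroup G} (h : Dih E) {f : E → ℂ} (h1 : f 1 = 0) (y : E) :
    indFun E f y = f y + f y⁻¹ := by
  classical
  by_cases hy : y = 1
  · subst hy; rw [OneMemClass.coe_one, indFun_apply_one, inv_one, h1]; simp
  have h2 : ∀ x : G, extendByZero E f (x * y * x⁻¹) =
      (if x ∈ E then f y - f y⁻¹ else 0) + if x ∈ 𝐍[E] then f y⁻¹ else 0 := fun x => by
    by_cases hx : x ∈ E
    · rw [if_pos hx, if_pos (le_normalizer hx), h.comm x hx y y.2, mul_inv_cancel_right,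
        extendByZero_of_mem _ _ y.2, sub_add_cancel]
    · by_cases hx' : x ∈ 𝐍[E]
      · rw [if_neg hx, if_pos hx', h.inv x hx' hx y y.2, zero_add,
          extendByZero_of_mem _ _ (inv_mem y.2)]; rfl
      · rw [if_neg hx, if_neg hx', extendByZero_of_not_mem _ _ fun e =>
          hx' (h.ti x y y.2 (fun e => hy (Subtype.ext e)) e), add_zero]
  have h3 : ∀ (H : Subgroup G) (c : ℂ), ∑ x : G, (if x ∈ H then c else 0) = Nat.card H * c :=
    fun H c => by
      rw [← Finset.sum_filter, Finset.sum_const, nsmul_eq_mul, Nat.card_eq_fintype_card,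
        Fintype.card_subtype]
  rw [indFun_apply', Finset.sum_congr rfl fun x _ => h2 x, Finset.sum_add_distrib, h3, h3, h.card,
    inv_mul_eq_iff_eq_mul₀ card_ne_zero_complex]
  push_cast; ring

theorem Dih.exists_theta {E : Subgroup G} (h : Dih E) {ψ : IrrCharacter G} (hψ : ψ ≠ irrOne G)
    (h1 : ∀ y ∈ E, y ≠ 1 → (ψ : G → ℂ) y = 1) {l : E →* ℂˣ} (hl : l ≠ l⁻¹) :
    ∃ θ : IrrCharacter G, (∀ g, (∀ x, x * g * x⁻¹ ∉ E) → (θ : G → ℂ) g = 1 + (ψ : G → ℂ) g) ∧
      (θ : G → ℂ) 1 = 1 + (ψ : G → ℂ) 1 ∧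
      ∀ y : E, y ≠ 1 → (θ : G → ℂ) y = l y + (l y)⁻¹ := by
  classical
  haveI := Fintype.ofFinite E
  let L : (E →* ℂˣ) → E → ℂ := fun l y => (l y : ℂ)
  have hL : ∀ a b, classInner (L a) (L b) = if a = b then 1 else 0 := fun a b => by
    rw [(isIrrCharacter_hom a).classInner_eq (isIrrCharacter_hom b)]
    exact if_congr hom_coe_injective.eq_iff rfl rfl
  have hl1 : l ≠ 1 := fun e => hl (by rw [e]; ext; simp)
  have hl2 : l⁻¹ ≠ 1 := fun e => hl1 (by ext y; simpa using DFunLike.congr_fun e y)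
  have f1 : (L 1 - L l) 1 = 0 := by simp [L]
  have hgen : IsGeneralizedCharacter G (indFun E (L 1 - L l)) :=
    ((isCharacter_hom 1).isGen.sub (isCharacter_hom l).isGen).indFun
  set α := indFun E (L 1 - L l) with hα
  have e1 : classInner (L 1 - L l) (L 1) = 1 := by
    rw [classInner_sub_left, hL, hL]; simp [hl1]
  have a1 : classInner α (irrOne G) = 1 := by
    rw [hα, frobenius_reciprocity _ _ (irrOne G).2.isClassFunction]; exact e1
  have a2 : classInner α ψ = 1 := by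
    rw [hα, frobenius_reciprocity _ _ ψ.2.isClassFunction, ← e1]
    simp only [classInner]
    congr 1
    refine Finset.sum_congr rfl fun y _ => ?_
    by_cases hy : y = 1
    · rw [hy, f1, zero_mul, zero_mul]
    · rw [h1 y y.2 fun e => hy (Subtype.ext e)]; simp [L]
  have a3 : classInner α α = 3 := by
    have : (fun y : E => α y) = (L 1 - L l) + (L 1 - L l⁻¹) := by
      ext y; rw [hα, h.ind_apply f1]; simp [L]
    nth_rewrite 1 [hα]
    rw [frobenius_reciprocity _ _ hgen.isClassFunction, this]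
    simp only [classInner_add_right, classInner_sub_left, classInner_sub_right, hL]
    simp [hl1, hl1.symm, hl2.symm, hl]
    norm_num
  have hθ : IsGeneralizedCharacter G (irrOne G + ψ - α) :=
    ((irrOne G).2.isGen.add ψ.2.isGen).sub hgen
  have t1 : ((irrOne G : G → ℂ) + ψ - α) 1 = 1 + (ψ : G → ℂ) 1 := by
    have := h.ind_apply f1 1
    rw [inv_one, f1, OneMemClass.coe_one] at this
    simp [hα, this]
  rcases hθ.irr_or_neg_of_classInner_self (by
    simp only [classInner_add_right, classInner_sub_left, classInner_sub_right, classInner_add_left,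
      a1, a2, a3, classInner_irr, ← hgen.classInner_comm (irrOne G).2.isGen,
      ← hgen.classInner_comm ψ.2.isGen]
    simp [hψ, hψ.symm]
    norm_num) with h2 | h2
  · refine ⟨⟨_, h2⟩, fun g hg => ?_, t1, fun y hy => ?_⟩
    · simp [hα, indFun_eq_zero_of_not_conj _ _ hg]
    · simp only [Pi.sub_apply, Pi.add_apply, hα, h.ind_apply f1, irrOne_apply,
        h1 y y.2 fun e => hy (Subtype.ext e)]
      simp [L]; ring
  · have h3 := h2.coe_charDegree
    rw [Pi.neg_apply, t1, ← ψ.2.coe_charDegree] at h3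
    have h4 : (charDegree (-((irrOne G : G → ℂ) + (ψ : G → ℂ) - α)) : ℤ) =
        -(1 + charDegree (ψ : G → ℂ)) := by exact_mod_cast h3
    omega

variable {P : Sylow p G}

theorem f_le {e t : ℕ} (D : PB P e t) [Fintype (P : Subgroup G)] (ht : e + 1 ≠ p)
    {T : Finset (IrrCharacter G)} (hT : 2 * T.card = e + 1) (h1 : irrOne G ∈ T)
    (hd : ∀ χ ∈ T, χ ≠ irrOne G → charDegree (χ : G → ℂ) = p + 1)
    (hpl : ∀ χ, Pl (P : Subgroup G) χ → χ ∈ T) : D.ε = 1 ∧ D.f ≤ e := by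
  classical
  have hp2 := hp.out.two_le
  have hte := D.te
  have hep : e + 1 ≤ p := by have := D.t_pos; nlinarith
  have hε : D.ε = 1 := D.ε_sign.resolve_right fun hε => by
    choose m hm using fun θ : IrrCharacter G => exists_avg_one (P : Subgroup G) θ.2.isCharacter
    have h2 := D.avgY
    simp only [hm, hε] at h2
    have h3 : ∑ θ ∈ D.Y, D.f < ∑ θ ∈ D.Y, p * m θ := by
      have : (p : ℤ) * ∑ θ ∈ D.Y, (m θ : ℤ) = t * D.f + (p - 1) := by
        have h4 : (p : ℂ) * ∑ θ ∈ D.Y, (m θ : ℂ) = t * D.f + (p - 1) := by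
          rw [h2]; push_cast; ring
        exact_mod_cast h4
      rw [Finset.sum_const, D.cardY, ← Finset.mul_sum, smul_eq_mul]
      zify; omega
    obtain ⟨θ, hθ, h4⟩ := Finset.exists_lt_of_sum_lt h3
    have h5 := hd θ (hpl θ ⟨p * m θ, by
      have := card_mul_avg (P : Subgroup G) (θ : G → ℂ) 1
      simp only [mul_one, D.hP, hm] at this
      rw [← this]; push_cast; rfl, by rwa [D.degY θ hθ]⟩) (D.ne_one_of_mem_Y hθ)
    have h6 := D.f_mod.dvd
    rw [← D.degY θ hθ, h5, hε] at h6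
    have h7 : (p : ℤ) ∣ (e + 1 : ℕ) := by
      have := (dvd_refl (p : ℤ)).add h6
      rw [← dvd_neg]; convert (dvd_refl (p : ℤ)).add h6 using 1; push_cast; ring
    have := Nat.le_of_dvd (by omega) (Int.natCast_dvd_natCast.1 h7)
    omega
  refine ⟨hε, ?_⟩
  have hX : D.sg 1 ⊆ T.erase (irrOne G) := fun χ hχ => by
    obtain ⟨h2, h3, h4⟩ := D.mem_sg.1 hχ
    refine Finset.mem_erase.2 ⟨h2, hpl χ ⟨charDegree (χ : G → ℂ) + (p - 1), ?_, by omega⟩⟩
    rw [sum_eq_of_const _ _ _ (D.valX χ h3), D.hP, h4, ← χ.2.coe_charDegree]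
    push_cast [Nat.cast_sub hp.out.one_le]; ring
  have h2 := D.deg_split
  rw [hε, Finset.sum_congr rfl (g := fun _ => (p : ℤ) + 1) (s₁ := D.sg 1) fun χ hχ => by
    rw [hd χ (Finset.mem_of_mem_erase (hX hχ)) (Finset.ne_of_mem_erase (hX hχ))]; simp,
    Finset.sum_const, nsmul_eq_mul] at h2
  have h3 : (D.sg (-1)).card • ((p : ℤ) - 1) ≤ ∑ χ ∈ D.sg (-1), (charDegree (χ : G → ℂ) : ℤ) :=
    Finset.card_nsmul_le_sum _ _ _ fun χ hχ => by
      obtain ⟨-, h3, h4⟩ := D.mem_sg.1 hχ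
      have h5 := (D.degX χ h3).symm.dvd
      rw [h4] at h5
      have := Int.le_of_dvd (by omega) h5
      omega
  have h4 := Finset.card_le_card hX
  rw [Finset.card_erase_of_mem h1] at h4
  have h5 := D.card_split
  have h6 : (D.sg 1).card ≤ (D.sg (-1)).card := by omega
  rw [nsmul_eq_mul] at h3
  zify at h5 h6 ⊢
  nlinarith

section
variable (S : SC P) {E : Subgroup G} (hEN : E ≤ 𝐍[(P : Subgroup G)])
  (hE : ∀ y ∈ E, y ∈ (P : Subgroup G) → y = 1)
include S hEN hE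

theorem exists_nu {ψ : IrrCharacter G} (hψ : charDegree (ψ : G → ℂ) = p) :
    (∀ x ∈ (P : Subgroup G), x ≠ 1 → (ψ : G → ℂ) x = 0) ∧
      ∃ ν : E →* ℂˣ, ∀ y : E, y ≠ 1 → (ψ : G → ℂ) y = ν y := by
  haveI := Fintype.ofFinite (P : Subgroup G)
  have h1 : ∀ x ∈ (P : Subgroup G), x ≠ 1 → (ψ : G → ℂ) x = 0 := fun x hx hx1 =>
    vanish_of_coprime (d := p) (m := (P : Subgroup G).index)
      (by rw [← (P : Subgroup G).card_mul_index, S.hP]) hp.out P.not_dvd_index ψ.2 hψ.symm.dvd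
      (orderOf_of_mem_card_prime S.hP hx hx1).symm.dvd
  have h2 : avg (P : Subgroup G) (ψ : G → ℂ) 1 = 1 := by
    simp only [avg, mul_one]
    rw [sum_eq_of_const _ _ _ h1, ← ψ.2.coe_charDegree, hψ, S.hP, mul_zero, add_zero,
      inv_mul_cancel₀ (by exact_mod_cast hp.out.ne_zero)]
  obtain ⟨ν, hν⟩ := (isCharacter_avg_restrict (P : Subgroup G) E hEN
    ψ.2.isCharacter).exists_hom_of_apply_one h2
  refine ⟨h1, ν, fun y hy => ?_⟩
  rw [← congrFun hν y, avg_eq_of_not_mem_C S.hP ψ.2.isClassFunction (hEN y.2)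
    fun h => hy (Subtype.ext (hE y y.2 (S.hC ▸ h)))]

theorem perfect_of_uniq (hO : pPrimeCore p G = ⊥) (hE1 : E ≠ ⊥)
    (hPE : (P : Subgroup G) ⊔ E = 𝐍[(P : Subgroup G)])
    (hu : ∃! χ : IrrCharacter G, charDegree (χ : G → ℂ) = p) : commutator G = ⊤ := by
  obtain ⟨ψ, hψ, hu⟩ := hu
  obtain ⟨-, ν, hν⟩ := exists_nu S hEN hE hψ
  by_contra hne
  obtain ⟨g, hg⟩ : ∃ g, g ∉ commutator G := by
    by_contra! h; exact hne (eq_top_iff.2 fun g _ => h g)
  obtain ⟨χ, h0, h1, h2⟩ := exists_irr_le_charKer_not_mem (commutator G) hg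
  obtain ⟨μ, hμ⟩ := h0.isCharacter.exists_hom_of_apply_one (h0.commutator_le_charKer_iff.1 h1)
  rw [hμ, charKer_hom] at h2
  have h3 := congrArg Subtype.val (hu ⟨_, ψ.2.mul_hom μ⟩ (by simpa [charDegree] using hψ))
  have h4 : E ≤ μ.ker := fun y hy => by
    by_cases hy1 : y = 1
    · rw [hy1]; exact one_mem _
    have : (ψ : G → ℂ) y * (μ y : ℂ) = (ψ : G → ℂ) y := congrFun h3 y
    rw [hν ⟨y, hy⟩ fun e => hy1 (congrArg Subtype.val e),
      mul_eq_left₀ (Units.ne_zero _)] at this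
    exact Units.ext this
  have h5 : (P : Subgroup G) ≤ μ.ker := le_of_normal_ne_bot hO S.hP fun h => hE1 (eq_bot_iff.2 (h ▸ h4))
  have h6 : 𝐍[(P : Subgroup G)] ⊔ μ.ker = ⊤ := Sylow.normalizer_sup_eq_top' P h5
  rw [← hPE, sup_eq_right.2 (sup_le h5 h4)] at h6
  exact h2 (h6 ▸ mem_top g)

end

theorem dih_of_odd (hG : commutator G = ⊤) {E : Subgroup G} (hc : ∀ a ∈ E, ∀ b ∈ E, a * b = b * a)
    (hN : Nat.card 𝐍[E] = 2 * Nat.card E)
    (ti : ∀ g, ∀ y ∈ E, y ≠ 1 → g * y * g⁻¹ ∈ E → g ∈ 𝐍[E]) (hodd : Odd (Nat.card E)) :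
    Dih E := by
  classical
  have hi : E.relIndex 𝐍[E] = 2 := by
    have := (E.subgroupOf 𝐍[E]).index_mul_card
    rw [hN, Nat.card_congr (subgroupOfEquivOfLe (le_normalizer (H := E))).toEquiv] at this
    exact Nat.eq_of_mul_eq_mul_right Nat.card_pos this
  have h2 : ∀ a ∈ 𝐍[E], ∀ b ∈ 𝐍[E], a * b ∈ E ↔ (a ∈ E ↔ b ∈ E) := fun a ha b hb =>
    mul_mem_iff_of_index_two hi (a := ⟨a, ha⟩) (b := ⟨b, hb⟩)
  have hmem : ∀ a ∈ 𝐍[E], Odd (orderOf a) → a ∈ E := fun a ha ⟨k, hk⟩ => by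
    have h3 : (a * a) ^ k * a = 1 := by rw [← sq, ← pow_mul, ← pow_succ, ← hk, pow_orderOf_eq_one]
    rw [eq_inv_of_mul_eq_one_right h3]
    exact inv_mem (pow_mem ((h2 a ha a ha).2 Iff.rfl) k)
  refine ⟨hc, hN, ti, fun σ hσ hσ' y hy => ?_⟩
  by_contra hne
  have hy' := H3.conj_mem_of_mem_normalizer hσ hy
  have hw : y * (σ * y * σ⁻¹) ≠ 1 := fun e => hne (eq_inv_of_mul_eq_one_right e)
  have hwσ : σ * (y * (σ * y * σ⁻¹)) = y * (σ * y * σ⁻¹) * σ := by
    have h3 := hc _ ((h2 σ hσ σ hσ).2 Iff.rfl) y hy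
    calc σ * (y * (σ * y * σ⁻¹)) = σ * y * σ⁻¹ * (σ * σ * y) * σ⁻¹ := by group
      _ = σ * y * σ⁻¹ * y * σ := by rw [h3]; group
      _ = _ := by rw [hc _ hy' y hy]
  have hwE := mul_mem hy hy'
  generalize y * (σ * y * σ⁻¹) = w at hw hwσ hwE
  obtain ⟨r, hr, hrw⟩ := Nat.exists_prime_and_dvd (fun e => hw (orderOf_eq_one_iff.1 e))
  haveI := Fact.mk hr
  obtain ⟨k, hk⟩ := exists_pow_orderOf_eq hrw
  have hcE : w ^ k ∈ E := pow_mem hwE k
  have hcN : ∀ g ∈ 𝐍[E], g * w ^ k = w ^ k * g := fun g hg => by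
    by_cases h3 : g ∈ E
    · exact hc g h3 _ hcE
    · have h4 := hc _ ((h2 g hg σ⁻¹ (inv_mem hσ)).2 (by simp [h3, hσ'])) _ hcE
      have h5 : Commute σ (w ^ k) := Commute.pow_right hwσ k
      calc g * w ^ k = g * σ⁻¹ * (σ * w ^ k) := by group
        _ = w ^ k * g := by rw [h5.eq, ← mul_assoc, h4]; group
  generalize w ^ k = c at hk hcE hcN
  have hc1 : c ≠ 1 := by rintro rfl; exact hr.one_lt.ne (by simpa using hk)
  have hro : Odd r := hodd.of_dvd_nat (hk ▸ E.orderOf_dvd_natCard hcE)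
  haveI : IsMulCommutative E := ⟨⟨fun a b => Subtype.ext (hc a a.2 b b.2)⟩⟩
  letI : CommGroup E := IsMulCommutative.instCommGroup
  have h3 := MonoidHom.transfer_eq_pow (MonoidHom.id E) c fun j g hg => by
    by_cases h4 : c ^ j = 1
    · simp [h4]
    have h5 := ti g⁻¹ _ (pow_mem hcE j) h4 (by simpa using hg)
    rw [(Commute.pow_right (hcN _ h5) j).eq]; simp
  have h4 : c ^ E.index = 1 := by
    have := Abelianization.commutator_subset_ker (MonoidHom.transfer (MonoidHom.id E))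
      (hG ▸ mem_top c)
    rw [MonoidHom.mem_ker, h3] at this
    exact congrArg Subtype.val this
  have h5 : IsPGroup r (zpowers c) := IsPGroup.of_card (n := 1) (by rw [Nat.card_zpowers, hk, pow_one])
  obtain ⟨Q, hQ⟩ := h5.exists_le_sylow
  have hQo : ∀ a ∈ (Q : Subgroup G), Odd (orderOf a) := fun a ha => by
    obtain ⟨n, hn⟩ := (IsPGroup.iff_orderOf.1 Q.isPGroup') ⟨a, ha⟩
    rw [← orderOf_coe] at hn
    exact hn ▸ hro.pow
  haveI : Nontrivial (Q : Subgroup G) := ⟨⟨⟨c, hQ (mem_zpowers c)⟩, 1, by simpa using hc1⟩⟩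
  obtain ⟨⟨z, hz⟩, hz1⟩ := @exists_ne _ Q.isPGroup'.center_nontrivial 1
  have hz2 : (z : G) ≠ 1 := fun e => hz1 (Subtype.ext (Subtype.ext e))
  have hz3 : ∀ a ∈ (Q : Subgroup G), a * z = z * a := fun a ha =>
    congrArg Subtype.val (mem_center_iff.1 hz ⟨a, ha⟩)
  have hzE : (z : G) ∈ E := hmem _ (ti _ c hcE hc1 (by
    rw [← hz3 c (hQ (mem_zpowers c)), mul_inv_cancel_right]; exact hcE)) (hQo _ z.2)
  have hQE : (Q : Subgroup G) ≤ E := fun a ha => hmem _ (ti _ z hzE hz2 (by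
    rw [hz3 a ha, mul_inv_cancel_right]; exact hzE)) (hQo _ ha)
  exact Q.not_dvd_index ((hk ▸ orderOf_dvd_of_pow_eq_one h4).trans (index_dvd_of_le hQE))

theorem card_sylow_le_of_odd (S : SC P) {E : Subgroup G} (hO : pPrimeCore p G = ⊥) (hE1 : E ≠ ⊥)
    (hn : ¬ (P : Subgroup G).Normal)
    (hN : ∀ g, g ∈ 𝐍[(P : Subgroup G)] ↔ ∃ y ∈ E, y⁻¹ * g ∈ (P : Subgroup G))
    (hE : ∀ y ∈ E, y ∈ (P : Subgroup G) → y = 1) (κ : E →* (ZMod p)ˣ) (hκ : Function.Injective κ)
    (hodd : Odd (Nat.card E)) (hD : Dih E) {t : ℕ} (D : PB P (Nat.card E) t)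
    (hu : ∃! χ : IrrCharacter G, charDegree (χ : G → ℂ) = p) : Nat.card (Sylow p G) ≤ p + 1 := by
  classical
  haveI := Fintype.ofFinite (P : Subgroup G)
  obtain ⟨ψ, hψ, hu⟩ := hu
  have hEN : E ≤ 𝐍[(P : Subgroup G)] := fun y hy => (hN y).2 ⟨y, hy, by simp⟩
  obtain ⟨hψP, ν, hν⟩ := exists_nu S hEN hE hψ
  have hψ1 : (ψ : G → ℂ) 1 = p := by rw [← ψ.2.coe_charDegree, hψ]
  have hint : ∀ g, ∃ n : ℤ, (ψ : G → ℂ) g = n := fun g =>
    exists_int_of_forall_ringEquiv (ψ.2.isCharacter.isIntegral g) fun σ =>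
      congrFun (congrArg Subtype.val (hu (gal σ ψ) (charDegree_eq_of_apply_one (by
        rw [gal_apply, hψ1, map_natCast])))) g
  have hinv : ∀ g, (ψ : G → ℂ) g⁻¹ = (ψ : G → ℂ) g := fun g => by
    obtain ⟨n, hn⟩ := hint g
    rw [ψ.2.apply_inv, hn, map_intCast]
  have hE' : ∀ y ∈ E, y ≠ 1 → (ψ : G → ℂ) y = 1 := fun y hy hy1 => by
    have h0 : (⟨y, hy⟩ : E) ≠ 1 := fun e => hy1 (congrArg Subtype.val e)
    have h1 := hν _ (inv_ne_one.2 h0)
    rw [coe_inv, hinv, hν _ h0, Units.val_inj, map_inv, eq_inv_iff_mul_eq_one, ← sq] at h1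
    have h2 : orderOf (ν ⟨y, hy⟩) = 1 := Nat.eq_one_of_dvd_coprimes (Nat.coprime_two_left.2 hodd)
      (orderOf_dvd_of_pow_eq_one h1) ((orderOf_map_dvd ν _).trans (orderOf_dvd_natCard _))
    rw [hν _ h0, orderOf_eq_one_iff.1 h2, Units.val_one]
  have hne : ψ ≠ irrOne G := by
    rintro rfl
    rw [irrOne_apply] at hψ1
    exact hp.out.one_lt.ne (by exact_mod_cast hψ1)
  haveI : IsCyclic E := isCyclic_of_injective κ hκ
  obtain ⟨y, hy⟩ := IsCyclic.exists_generator (α := E)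
  have ho := orderOf_eq_card_of_forall_mem_zpowers hy
  obtain ⟨m, hm⟩ := hodd
  have hm0 : m ≠ 0 := by
    rintro rfl
    exact hE1 (card_eq_one.1 (by simpa using hm))
  have hy1 : y ≠ 1 := by rintro rfl; rw [orderOf_one] at ho; omega
  have hζ := Complex.isPrimitiveRoot_exp (Nat.card E) (by omega)
  generalize Complex.exp (2 * Real.pi * Complex.I / Nat.card E) = ζ at hζ
  have hζ0 := hζ.ne_zero (by omega)
  have hζu : IsPrimitiveRoot (Units.mk0 ζ hζ0) (Nat.card E) := IsPrimitiveRoot.coe_units_iff.1 hζ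
  obtain ⟨l, hl⟩ : ∃ l : E →* ℂˣ, (l y : ℂ) = ζ := ⟨monoidHomOfForallMemZpowers hy
    (g' := Units.mk0 ζ hζ0) (by rw [ho, ← hζu.eq_orderOf]), by
      rw [monoidHomOfForallMemZpowers_apply_gen]; rfl⟩
  have hA : ∀ (k : ℕ) (z : E), ((l ^ k) z : ℂ) ∈ Algebra.adjoin ℤ {ζ} := fun k z => by
    obtain ⟨j, rfl⟩ := (mem_powers_iff_mem_zpowers.2 (hy z) : _ ∈ Submonoid.powers y)
    simp only [map_pow, MonoidHom.pow_apply, Units.val_pow_eq_pow_val, hl]
    exact pow_mem (pow_mem (Algebra.self_mem_adjoin_singleton ℤ ζ) _) _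
  have hnd : ∀ a b : Fin m, ζ ^ (a + 1 : ℕ) * ζ ^ (b + 1 : ℕ) ≠ 1 := fun a b h => by
    rw [← pow_add, hζ.pow_eq_one_iff_dvd] at h
    have := Nat.le_of_dvd (by omega) h
    omega
  choose θ t1 t2 t3 using fun k : Fin m => hD.exists_theta hne hE' (l := l ^ (k + 1 : ℕ))
    fun e => hnd k k (by
      have := congrArg Units.val (DFunLike.congr_fun e y)
      simp only [MonoidHom.pow_apply, MonoidHom.inv_apply, Units.val_inv_eq_inv_val,
        Units.val_pow_eq_pow_val, hl] at this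
      nth_rewrite 1 [this]
      exact inv_mul_cancel₀ (pow_ne_zero _ hζ0))
  have hinj : Function.Injective θ := fun a b hab => by
    have h1 := t3 a y hy1
    rw [hab, t3 b y hy1] at h1
    simp only [MonoidHom.pow_apply, Units.val_inv_eq_inv_val, Units.val_pow_eq_pow_val, hl] at h1
    have h2 : (ζ ^ (a + 1 : ℕ) - ζ ^ (b + 1 : ℕ)) * (ζ ^ (a + 1 : ℕ) * ζ ^ (b + 1 : ℕ) - 1) = 0 := by
      have ha := pow_ne_zero (a + 1 : ℕ) hζ0
      have hb := pow_ne_zero (b + 1 : ℕ) hζ0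
      generalize ζ ^ (a + 1 : ℕ) = u at *
      generalize ζ ^ (b + 1 : ℕ) = v at *
      field_simp at h1
      linear_combination -h1
    have h3 := sub_eq_zero.1 ((mul_eq_zero.1 h2).resolve_right (sub_ne_zero.2 (hnd a b)))
    have := hζ.pow_inj (by omega) (by omega) h3
    exact Fin.ext (by omega)
  have hdeg : ∀ k, charDegree (θ k : G → ℂ) = p + 1 := fun k =>
    charDegree_eq_of_apply_one (by rw [t2, hψ1]; push_cast; ring)
  have hne1 : ∀ k, θ k ≠ irrOne G := fun k e => by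
    have := hdeg k
    rw [e, charDegree_eq_of_apply_one (n := 1) (by simp)] at this
    have := hp.out.pos; omega
  have hval : ∀ k g, (θ k : G → ℂ) g ∈ Algebra.adjoin ℤ {ζ} ∧
      (θ k : G → ℂ) g⁻¹ = (θ k : G → ℂ) g := fun k g => by
    by_cases h : ∀ x, x * g * x⁻¹ ∉ E
    · obtain ⟨n, hn⟩ := hint g
      rw [t1 k g h, t1 k g⁻¹ fun x hx => h x (by simpa [mul_assoc] using inv_mem hx), hinv, hn]
      exact ⟨add_mem (one_mem _) (intCast_mem _ n), rfl⟩
    · push Not at h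
      obtain ⟨x, hx⟩ := h
      rw [← (θ k).2.isClassFunction g x, ← (θ k).2.isClassFunction g⁻¹ x,
        show x * g⁻¹ * x⁻¹ = (x * g * x⁻¹)⁻¹ by group]
      generalize x * g * x⁻¹ = z at hx
      by_cases hz : z = 1
      · rw [hz, inv_one, t2, hψ1]
        exact ⟨add_mem (one_mem _) (natCast_mem _ p), rfl⟩
      have h0 : (⟨z, hx⟩ : E) ≠ 1 := fun e => hz (congrArg Subtype.val e)
      have h1 := t3 k _ h0
      have h2 := t3 k _ (inv_ne_one.2 h0)
      rw [coe_inv, map_inv, inv_inv, add_comm] at h2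
      exact ⟨h1 ▸ add_mem (hA _ _) (by rw [← map_inv]; exact hA _ _), h2.trans h1.symm⟩
  let T := insert (irrOne G) (Finset.univ.image θ)
  have hT : 2 * T.card = Nat.card E + 1 := by
    rw [Finset.card_insert_of_notMem (by simpa using hne1), Finset.card_image_of_injective _ hinj]
    rw [Finset.card_univ, Fintype.card_fin]; omega
  have hT' : ∀ {q : IrrCharacter G → Prop}, q (irrOne G) → (∀ k, q (θ k)) → ∀ χ ∈ T, q χ :=
    fun h1 h2 χ hχ => by
      rcases Finset.mem_insert.1 hχ with rfl | h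
      · exact h1
      · obtain ⟨k, -, rfl⟩ := Finset.mem_image.1 h
        exact h2 k
  have hte := D.te
  have hp2 : p ≠ 2 := by have := D.t_pos; rintro rfl; nlinarith [Nat.pos_of_ne_zero hm0]
  have hpo := hp.out.odd_of_ne_two hp2
  have hep : Nat.card E + 1 ≠ p := fun e => by rw [← e, hm] at hpo; obtain ⟨k, hk⟩ := hpo; omega
  have hpe : ¬ p ∣ Nat.card E := fun h =>
    hp.out.one_lt.ne' (Nat.dvd_one.1 ((Nat.dvd_add_right (h.mul_left t)).1 (hte ▸ dvd_rfl)))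
  obtain ⟨hε, hf⟩ := f_le D hep hT (Finset.mem_insert_self _ _)
    (hT' (fun h => absurd rfl h) fun k _ => hdeg k) fun χ => pl_subset S.hP hN hE κ hκ ⟨m, hm⟩ hζ T hT
      (hT' (fun g => one_mem _) fun k g => (hval k g).1) (hT' (fun g => rfl) fun k g => (hval k g).2)
      (hT' ⟨p, by simp [← Nat.card_eq_fintype_card, S.hP], by
        rw [charDegree_eq_of_apply_one (n := 1) (by simp)]; exact hp.out.one_lt⟩ fun k =>
        ⟨2 * p, by
          rw [sum_eq_of_const _ _ 1 fun x hx hx1 => by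
            rw [t1 k x fun g hg => hpe ?_, hψP x hx hx1, add_zero]
            rw [← orderOf_of_mem_card_prime S.hP hx hx1, ← ord_isConj (isConj_iff.2 ⟨g, rfl⟩)]
            exact E.orderOf_dvd_natCard hg, t2, hψ1, S.hP]
          push_cast; ring, by rw [hdeg]; have := hp.out.two_le; omega⟩)
  obtain ⟨x, hx, hx1⟩ := D.exists_ne_one
  obtain ⟨φ, hφ, h1⟩ : ∃ φ ∈ D.Y, (φ : G → ℂ) x ≠ (φ : G → ℂ) 1 := by
    by_contra! h
    have := D.sumY hx hx1
    rw [Finset.sum_congr rfl fun φ hφ => (h φ hφ).trans (D.apply_one_Y hφ), hε, Finset.sum_const,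
      nsmul_eq_mul] at this
    have h2 : (D.Y.card : ℤ) * D.f = -1 := by exact_mod_cast this
    have : (0 : ℤ) ≤ D.Y.card * D.f := by positivity
    omega
  refine card_sylow_le_of_char S.hP hn (S.hC.le.trans le_sup_left) (hO ▸ bot_le) φ.2.isCharacter
    (fun g hg => mem_bot.1 (charKer_eq_bot_of_ne hO S.hP φ.2.isCharacter hx h1 ▸
      φ.2.mem_charKer.2 hg)) ?_
  have h2 : 2 ≤ t := by
    have := D.t_pos
    by_contra h
    rw [show t = 1 by omega] at hte
    omega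
  rw [D.degY φ hφ]
  nlinarith

end H9.Tt
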